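import Mathlib
import Cfsg.Agent.Lib.Helper74.O720.Defs
import Cfsg.Agent.Lib.Helper20.O720.D2
import Cfsg.Agent.Lib.Helper20.O720.SY
import Cfsg.Agent.Lib.Helper50.O720.B40

set_option autoImplicit false
set_option linter.unusedSectionVars false
set_option linter.unusedVariables false

namespace Cfsg.Agent.Lib.Helper74.O720

variable {G : Type*} [Group G] [Finite G] [IsSimpleGroup G]

theorem E2_pgroup (D : Subgroup G) (hD : Nat.card D = 3) : IsPGroup 3 D :=
  IsPGroup.of_card (n := 1) (by rw [hD]; norm_num)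

/-- [E1] -/
theorem E1 (h : Nat.card G = 720) (h40 : Nat.card (Sylow 3 G) = 40) (D : Subgroup G) (hD : Nat.card D = 3)
    (hM : Nat.card (Nz D) = 72) (g : G) (hg : g ∉ Nz D) : ¬ D ≤ cj g (Nz D) := by
  intro hle
  have h9 : 9 ∣ Nat.card (cj g (Nz D)) := by rw [card_cj, hM]; norm_num
  obtain ⟨P', h1, h2⟩ := SY h (cj g (Nz D)) D h9 hle (E2_pgroup D hD)
  have h3 : cj g D ≤ (P' : Subgroup G) := by
    apply le_of_normal3 (cj g D) (E2_pgroup _ (by rw [card_cj, hD])) P'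
    rw [Nz_cj]
    exact h2
  exact hg (mem_Nz_of_cj_eq (B40 h h40 P' D h1 g h3))

/-- [E2] -/
theorem E2 (h : Nat.card G = 720) (h40 : Nat.card (Sylow 3 G) = 40) (D : Subgroup G) (hD : Nat.card D = 3)
    (hM : Nat.card (Nz D) = 72) (g : G) (hg : g ∉ Nz D) : ¬ 9 ∣ Nat.card (Ig (Nz D) g) := by
  intro h9
  obtain ⟨P', -, h2⟩ := SY h (Ig (Nz D) g) ⊥ h9 bot_le IsPGroup.of_bot
  have h1 : D ≤ (P' : Subgroup G) :=
    le_of_normal3 D (E2_pgroup D hD) P' (h2.trans inf_le_left)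
  have h3 : cj g D ≤ (P' : Subgroup G) := by
    apply le_of_normal3 (cj g D) (E2_pgroup _ (by rw [card_cj, hD])) P'
    rw [Nz_cj]
    exact h2.trans inf_le_right
  exact hg (mem_Nz_of_cj_eq (B40 h h40 P' D h1 g h3))

end Cfsg.Agent.Lib.Helper74.O720
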