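import Mathlib
import Cfsg.Agent.Lib.Helper74.O720.Defs

set_option autoImplicit false

namespace Cfsg.Agent.Lib.Helper74.O720

section general
variable {G : Type*} [Group G] [Finite G]

/-- [ZC] move `a` to the base point: `a = xM`; replace `s` by `x⁻¹ s x`; `smul_coset_eq_iff`. -/
theorem ZC (M : Subgroup G)
    (h3 : ∀ g g' : G, g ∉ M → g' ∉ M → g⁻¹ * g' ∉ M → M ⊓ cj g M ⊓ cj g' M = ⊥) :
    ∀ s : G, ∀ a b c : G ⧸ M, a ≠ b → b ≠ c → a ≠ c → s • a = a → s • b = b → s • c = c → s = 1 := by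
  intro s a b c hab hbc hac ha hb hc
  obtain ⟨x, rfl⟩ := QuotientGroup.mk_surjective a
  obtain ⟨y, rfl⟩ := QuotientGroup.mk_surjective b
  obtain ⟨z, rfl⟩ := QuotientGroup.mk_surjective c
  have ha' : x⁻¹ * s * x ∈ M := mem_cj.1 (smul_coset_eq_iff.1 ha)
  have hb' : y⁻¹ * s * y ∈ M := mem_cj.1 (smul_coset_eq_iff.1 hb)
  have hc' : z⁻¹ * s * z ∈ M := mem_cj.1 (smul_coset_eq_iff.1 hc)
  have h1 : x⁻¹ * y ∉ M := fun h => hab (QuotientGroup.eq.2 h)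
  have h2 : x⁻¹ * z ∉ M := fun h => hac (QuotientGroup.eq.2 h)
  have h4 : (x⁻¹ * y)⁻¹ * (x⁻¹ * z) ∉ M := by
    intro h
    apply hbc
    apply QuotientGroup.eq.2
    have e : (x⁻¹ * y)⁻¹ * (x⁻¹ * z) = y⁻¹ * z := by group
    rwa [e] at h
  have hbot := h3 _ _ h1 h2 h4
  have hmem : x⁻¹ * s * x ∈ M ⊓ cj (x⁻¹ * y) M ⊓ cj (x⁻¹ * z) M := by
    refine ⟨⟨ha', ?_⟩, ?_⟩
    · show x⁻¹ * s * x ∈ cj (x⁻¹ * y) M
      rw [mem_cj]
      have e : (x⁻¹ * y)⁻¹ * (x⁻¹ * s * x) * (x⁻¹ * y) = y⁻¹ * s * y := by group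
      rw [e]; exact hb'
    · show x⁻¹ * s * x ∈ cj (x⁻¹ * z) M
      rw [mem_cj]
      have e : (x⁻¹ * z)⁻¹ * (x⁻¹ * s * x) * (x⁻¹ * z) = z⁻¹ * s * z := by group
      rw [e]; exact hc'
  rw [hbot, Subgroup.mem_bot] at hmem
  have : s = x * (x⁻¹ * s * x) * x⁻¹ := by group
  rw [this, hmem]
  group

end general

end Cfsg.Agent.Lib.Helper74.O720
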