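import Mathlib
import Cfsg.Agent.Lib.Helper74.O720.Defs

set_option autoImplicit false

namespace Cfsg.Agent.Lib.Helper74.O720

variable {G : Type*} [Group G] [Finite G] [IsSimpleGroup G]

/-- [ZE] `N = ⊥` is not transitive on 10 points; so `N = ⊤`; the stabilizer of the point `M` in `⊤` contains a non-identity element of `M`. -/
theorem ZE (h : Nat.card G = 720) (M : Subgroup G) (hM : Nat.card M = 72) :
    ∀ N : Subgroup G, N.Normal → MulAction.IsPretransitive N (G ⧸ M) →
      ∃ a : G ⧸ M, MulAction.stabilizer N a ≠ ⊥ := by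
  intro N hN htr
  have hMtop : M ≠ ⊤ := by
    intro e
    rw [e, Subgroup.card_top, h] at hM
    omega
  have hMbot : M ≠ ⊥ := by
    intro e
    rw [e, Subgroup.card_bot] at hM
    omega
  rcases hN.eq_bot_or_eq_top with rfl | rfl
  · exfalso
    -- some `g ∉ M`
    obtain ⟨g, hg⟩ : ∃ g : G, g ∉ M := by
      by_contra hcon
      push Not at hcon
      exact hMtop (eq_top_iff.2 fun x _ => hcon x)
    obtain ⟨n, hn⟩ := htr.exists_smul_eq ((1 : G) : G ⧸ M) ((g : G) : G ⧸ M)
    have hn1 : n = 1 := Subsingleton.elim _ _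
    rw [hn1, one_smul] at hn
    have := QuotientGroup.eq.1 hn
    apply hg
    simpa using this
  · obtain ⟨m, hmM, hm1⟩ : ∃ m ∈ M, m ≠ 1 := by
      by_contra hcon
      push Not at hcon
      exact hMbot (eq_bot_iff.2 fun x hx => Subgroup.mem_bot.2 (hcon x hx))
    refine ⟨((1 : G) : G ⧸ M), ?_⟩
    intro hbot
    have hmem : (⟨m, Subgroup.mem_top m⟩ : (⊤ : Subgroup G)) ∈
        MulAction.stabilizer (⊤ : Subgroup G) (((1 : G) : G ⧸ M)) := by
      rw [MulAction.mem_stabilizer_iff]
      show m • (((1 : G) : G ⧸ M)) = ((1 : G) : G ⧸ M)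
      rw [smul_coset_eq_iff, cj_one]
      exact hmM
    rw [hbot, Subgroup.mem_bot] at hmem
    exact hm1 (congrArg Subtype.val hmem)

end Cfsg.Agent.Lib.Helper74.O720
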